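import Cfsg.Agent.U6Mult30.Two
import Cfsg.Agent.SchurClassical.UnitSmall
import Cfsg.Agent.SchurMult.Multiplier

/-!
The Schur multiplier of PSU₆(2) over four elements: the fibre product of the fourfold cover with
SU₆(2) is perfect and has no multiplier.
-/

set_option autoImplicit false

namespace CfsgLib.U6Mult

open CfsgLib.SchurClassical CfsgLib.CosetEnum CfsgLib.CosetEnum.Fi22.U6
open CfsgLib.CosetEnum.Suz.G2 (F4)
open scoped commutatorElement

universe u

/-- A central kernel of order prime to `r` does not matter. -/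
theorem noMult_of_central_coprime {X L : Type u} [Group X] [Group L] {r : ℕ} (hr : r.Prime)
    {f : X →* L} (hf : Function.Surjective f) (hfc : f.ker ≤ Subgroup.center X)
    (hco : ¬ r ∣ Nat.card f.ker) (hL : NoMult r L) : NoMult r X := by
  intro Γ _ _ σ hs hc hA
  set m := Nat.card f.ker with hm
  haveI := Fact.mk hr
  obtain ⟨a, ha⟩ := IsPGroup.iff_card.1 hA
  have hcop : (r ^ a).Coprime m := Nat.Coprime.pow_left _ (hr.coprime_iff_not_dvd.2 hco)
  have hpa : ∀ c ∈ σ.ker, c ^ r ^ a = 1 := fun c hc' => by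
    have := pow_card_eq_one' (x := (⟨c, hc'⟩ : σ.ker))
    rw [ha] at this
    exact congrArg Subtype.val this
  have hmpow : ∀ k : Γ, σ k ∈ f.ker → k ^ m ∈ σ.ker := fun k hk => by
    rw [MonoidHom.mem_ker, map_pow]
    exact congrArg Subtype.val (pow_card_eq_one' (x := (⟨σ k, hk⟩ : f.ker)))
  have hcen : ∀ k : Γ, σ k ∈ f.ker → k ∈ Subgroup.center Γ := by
    intro k hk
    refine Subgroup.mem_center_iff.2 fun g => ?_
    have hcm : g * k * g⁻¹ * k⁻¹ ∈ σ.ker := by
      rw [MonoidHom.mem_ker, map_mul, map_mul, map_mul, map_inv, map_inv,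
        Subgroup.mem_center_iff.1 (hfc hk) (σ g)]
      group
    set c := g * k * g⁻¹ * k⁻¹ with hcdef
    have hcomm : Commute c k := (Subgroup.mem_center_iff.1 (hc hcm) k).symm
    have e : g * k * g⁻¹ = c * k := by rw [hcdef]; group
    have e1 : g * k ^ m * g⁻¹ = c ^ m * k ^ m := by rw [← hcomm.mul_pow, ← e, conj_pow]
    rw [Subgroup.mem_center_iff.1 (hc (hmpow k hk)) g, mul_inv_cancel_right] at e1
    have hc1 : c = 1 := by
      have h2 : c ^ m = 1 := mul_eq_right.1 e1.symm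
      have := pow_gcd_eq_one.2 ⟨hpa c hcm, h2⟩
      rwa [hcop.gcd_eq_one, pow_one] at this
    rw [hc1, one_mul] at e
    exact mul_inv_eq_iff_eq_mul.1 e
  let N : Subgroup Γ :=
    { carrier := {k | σ k ∈ f.ker ∧ k ^ m = 1}
      one_mem' := ⟨by rw [map_one]; exact one_mem _, one_pow _⟩
      mul_mem' := fun {x y} hx hy => ⟨by rw [map_mul]; exact mul_mem hx.1 hy.1, by
        rw [Commute.mul_pow (Subgroup.mem_center_iff.1 (hcen y hy.1) x), hx.2, hy.2, one_mul]⟩
      inv_mem' := fun {x} hx => ⟨by rw [map_inv]; exact inv_mem hx.1, by rw [inv_pow, hx.2, inv_one]⟩ }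
  haveI : N.Normal := ⟨fun k hk g => by
    rwa [Subgroup.mem_center_iff.1 (hcen k hk.1) g, mul_inv_cancel_right]⟩
  have hmap : N.map σ = f.ker := by
    refine le_antisymm (by rintro _ ⟨k, hk, rfl⟩; exact hk.1) fun x hx => ?_
    obtain ⟨k, rfl⟩ := hs x
    have hσm : σ k ^ m = 1 :=
      congrArg Subtype.val (pow_card_eq_one' (x := (⟨σ k, hx⟩ : f.ker)))
    by_cases hm1 : m = 1
    · rw [hm1, pow_one] at hσm
      rw [hσm]; exact one_mem _
    have hm0 : 0 < m := Nat.pos_of_ne_zero fun h0 => hco (h0 ▸ dvd_zero r)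
    obtain ⟨t, -, ht⟩ := Nat.exists_mul_mod_eq_one_of_coprime hcop (by omega)
    refine ⟨k ^ (r ^ a * t), ⟨by rw [map_pow]; exact pow_mem hx _, ?_⟩, ?_⟩
    · rw [← pow_mul, show r ^ a * t * m = m * (r ^ a * t) by ring, pow_mul, pow_mul,
        hpa _ (hmpow k hx), one_pow]
    · rw [map_pow, ← Nat.mod_add_div (r ^ a * t) m, ht, pow_add, pow_one, pow_mul, hσm, one_pow,
        mul_one]
  refine ker_inf_commutator_of_quotient hs hc hA hf hL hmap (eq_bot_iff.2 fun z hz => ?_)
  have := pow_gcd_eq_one.2 ⟨hpa z hz.1, hz.2.2⟩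
  rwa [hcop.gcd_eq_one, pow_one] at this

/-- The fourfold cover has no 2-multiplier. -/
theorem noMult_two : NoMult 2 X2 := by
  intro Γ _ _ σ hs hc hA
  set D := commutator Γ with hD
  have hmap : D.map σ = ⊤ := by
    have h := perfect_X2
    rw [hD, commutator_def, Subgroup.map_commutator, Subgroup.map_top_of_surjective _ hs]
    rwa [commutator_def] at h
  let σD : D →* X2 := σ.comp D.subtype
  have hDs : Function.Surjective σD := fun g => by
    obtain ⟨x, hx, rfl⟩ : g ∈ D.map σ := hmap ▸ Subgroup.mem_top g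
    exact ⟨⟨x, hx⟩, rfl⟩
  have hDD : commutator Γ ≤ ⁅D, D⁆ := by
    rw [commutator_def, Subgroup.commutator_le]
    intro a _ b _
    obtain ⟨a', ha, ea⟩ : σ a ∈ D.map σ := hmap ▸ Subgroup.mem_top _
    obtain ⟨b', hb, eb⟩ : σ b ∈ D.map σ := hmap ▸ Subgroup.mem_top _
    rw [Schur.commutator_congr hc ea.symm eb.symm]
    exact Subgroup.commutator_mem_commutator ha hb
  have hperfD : commutator D = ⊤ := by
    apply Subgroup.map_injective D.subtype_injective
    rw [Subgroup.map_subtype_commutator, ← MonoidHom.range_eq_map, Subgroup.range_subtype]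
    exact le_antisymm (Subgroup.commutator_mono le_top le_top) hDD
  have hstem : Cfsg.IsStemExtension σD := ⟨hDs, fun d hd => Subgroup.mem_center_iff.2 fun d' =>
    Subtype.ext (Subgroup.mem_center_iff.1 (hc (show (d : Γ) ∈ σ.ker from hd)) d'),
    by rw [hperfD]; exact le_top⟩
  have h2 := not_two_dvd_X2 σD hstem
  rw [eq_bot_iff]
  rintro z ⟨hz, hzD⟩
  rw [Subgroup.mem_bot]
  obtain ⟨k, hk⟩ := hA ⟨z, hz⟩
  have hk' : z ^ 2 ^ k = 1 := congrArg Subtype.val hk
  have hn : z ^ Nat.card σD.ker = 1 :=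
    congrArg (fun x : σD.ker => ((x : D) : Γ)) (pow_card_eq_one' (x := (⟨⟨z, hzD⟩, hz⟩ : σD.ker)))
  exact eq_one_of_pow_prime_pow hk' hn (Nat.prime_two.coprime_iff_not_dvd.2 h2)

/-- The full cover. -/
noncomputable def X : Subgroup (X2 × SUG) :=
  MonoidHom.eqLocus (pi2.comp (MonoidHom.fst X2 SUG)) (mkS.comp (MonoidHom.snd X2 SUG))

theorem mem_X {a : X2 × SUG} : a ∈ X ↔ pi2 a.1 = mkS a.2 := Iff.rfl

/-- The first projection. -/
noncomputable def pA : X →* X2 := (MonoidHom.fst X2 SUG).comp X.subtype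

/-- The second projection. -/
noncomputable def pB : X →* SUG := (MonoidHom.snd X2 SUG).comp X.subtype

/-- The covering map. -/
noncomputable def piX : X →* S := pi2.comp pA

theorem mkS_ker : mkS.ker = Subgroup.center SUG := QuotientGroup.ker_mk' _

theorem pA_surjective : Function.Surjective pA := fun a => by
  obtain ⟨B, hB⟩ := QuotientGroup.mk'_surjective (Subgroup.center SUG) (pi2 a)
  exact ⟨⟨(a, B), mem_X.2 hB.symm⟩, rfl⟩

theorem pB_surjective : Function.Surjective pB := fun B => by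
  obtain ⟨a, ha⟩ := pi2_surjective (mkS B)
  exact ⟨⟨(a, B), mem_X.2 ha⟩, rfl⟩

theorem mem_ker_piX {a : X} (h : a ∈ piX.ker) :
    (a : X2 × SUG).1 ∈ pi2.ker ∧ (a : X2 × SUG).2 ∈ Subgroup.center SUG := by
  have h1 : pi2 (a : X2 × SUG).1 = 1 := h
  exact ⟨h1, by rw [← mkS_ker, MonoidHom.mem_ker, ← mem_X.1 a.2, h1]⟩

theorem ker_piX_le : piX.ker ≤ Subgroup.center X := fun _ ha =>
  Subgroup.mem_center_iff.2 fun g => Subtype.ext (Prod.ext
    (Subgroup.mem_center_iff.1 (ker_pi2_le (mem_ker_piX ha).1) _)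
    (Subgroup.mem_center_iff.1 (mem_ker_piX ha).2 _))

theorem ker_pA_le : pA.ker ≤ piX.ker := fun a ha => by
  rw [MonoidHom.mem_ker, piX, MonoidHom.comp_apply, MonoidHom.mem_ker.1 ha, map_one]

theorem ker_pB_le : pB.ker ≤ piX.ker := fun a ha => by
  rw [MonoidHom.mem_ker]
  show pi2 (a : X2 × SUG).1 = 1
  rw [mem_X.1 a.2, show (a : X2 × SUG).2 = 1 from ha, map_one]

theorem card_center : Nat.card (Subgroup.center SUG) = 3 := by
  rw [CfsgLib.Unitary.card_center_SU hF (by omega)]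
  rfl

/-- The kernel of the first projection. -/
noncomputable def kerAEquiv : pA.ker ≃ Subgroup.center SUG where
  toFun a := ⟨_, (mem_ker_piX (ker_pA_le a.2)).2⟩
  invFun c := ⟨⟨(1, c.1), mem_X.2 (by
    rw [map_one]; exact (MonoidHom.mem_ker.1 (show (c : SUG) ∈ mkS.ker by rw [mkS_ker]; exact c.2)).symm)⟩, rfl⟩
  left_inv a := by
    rcases a with ⟨⟨⟨x, B⟩, h⟩, ha⟩
    obtain rfl : x = 1 := ha
    rfl
  right_inv _ := rfl

/-- The kernel of the second projection. -/
noncomputable def kerBEquiv : pB.ker ≃ pi2.ker where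
  toFun a := ⟨_, (mem_ker_piX (ker_pB_le a.2)).1⟩
  invFun c := ⟨⟨(c.1, 1), mem_X.2 (by rw [map_one]; exact MonoidHom.mem_ker.1 c.2)⟩, rfl⟩
  left_inv a := by
    rcases a with ⟨⟨⟨x, B⟩, h⟩, ha⟩
    obtain rfl : B = 1 := ha
    rfl
  right_inv _ := rfl

theorem noMult_X (r : ℕ) (hr : r.Prime) : NoMult r X := by
  by_cases h2 : r = 2
  · subst h2
    refine noMult_of_central_coprime hr pA_surjective (ker_pA_le.trans ker_piX_le) ?_ noMult_two
    rw [Nat.card_congr kerAEquiv, card_center]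
    norm_num
  · haveI : Fact (Nat.Prime 2) := ⟨Nat.prime_two⟩
    haveI : CharP F4 2 := charP_of_card_eq_prime_pow (f := 2) hF
    refine noMult_of_central_coprime hr pB_surjective (ker_pB_le.trans ker_piX_le) ?_
      (CfsgLib.SchurClassical.Un.noMult_su_cross hF 2 hr h2 6)
    rw [Nat.card_congr kerBEquiv, card_ker_pi2]
    intro h
    exact h2 ((Nat.prime_dvd_prime_iff_eq hr Nat.prime_two).1
      (hr.dvd_of_dvd_pow (show r ∣ 2 ^ 2 by norm_num; exact h)))

theorem perfect_X : commutator X = ⊤ := by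
  have hA : (commutator X).map pA = ⊤ := by
    have := perfect_X2
    rw [commutator_def] at this ⊢
    rw [Subgroup.map_commutator, Subgroup.map_top_of_surjective _ pA_surjective, this]
  have hB : (commutator X).map pB = ⊤ := by
    have := CfsgLib.Unitary.commutator_SU_eq_top hF (n := 6) (by omega) (by omega)
    rw [commutator_def] at this ⊢
    rw [Subgroup.map_commutator, Subgroup.map_top_of_surjective _ pB_surjective, this]
  have hz4 : ∀ z ∈ pi2.ker, z ^ 3 = z ∧ z ^ 4 = 1 := by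
    intro z hz
    obtain ⟨h1, h2⟩ := mem_ker_pi2 hz
    have hsq : ∀ x ∈ phi.ker, x * x = 1 := fun x hx => by
      have := pow_card_eq_one' (x := (⟨x, hx⟩ : phi.ker))
      rw [card_ker_phi, pow_two] at this
      exact congrArg Subtype.val this
    have e : z * z = 1 := Subtype.ext (Prod.ext (hsq _ h1) (hsq _ h2))
    have e3 : z ^ 3 = z := by rw [pow_succ, pow_two, e, one_mul]
    exact ⟨e3, by rw [pow_succ, e3, e]⟩
  have hc3 : ∀ c ∈ Subgroup.center SUG, c ^ 3 = 1 := fun c hc => by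
    have := pow_card_eq_one' (x := (⟨c, hc⟩ : Subgroup.center SUG))
    rw [card_center] at this
    exact congrArg Subtype.val this
  have hleft : ∀ a : X, a ∈ piX.ker → a ∈ commutator X := by
    intro a ha
    obtain ⟨h1, h2⟩ := mem_ker_piX ha
    -- the part in the fourfold kernel
    obtain ⟨u, hu, eu⟩ : pA a ∈ (commutator X).map pA := hA ▸ Subgroup.mem_top _
    obtain ⟨v, hv, ev⟩ : pB a ∈ (commutator X).map pB := hB ▸ Subgroup.mem_top _
    have huk : u ∈ piX.ker := by
      rw [MonoidHom.mem_ker, piX, MonoidHom.comp_apply, eu]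
      exact MonoidHom.mem_ker.1 ha
    have hvk : v ∈ piX.ker := by
      rw [MonoidHom.mem_ker]
      show pi2 (v : X2 × SUG).1 = 1
      have ev' : (v : X2 × SUG).2 = (a : X2 × SUG).2 := ev
      rw [mem_X.1 v.2, ev', ← mem_X.1 a.2]
      exact h1
    have eu' : (u : X2 × SUG).1 = (a : X2 × SUG).1 := eu
    have ev' : (v : X2 × SUG).2 = (a : X2 × SUG).2 := ev
    have : a = u ^ 3 * v ^ 4 := by
      refine Subtype.ext (Prod.ext ?_ ?_)
      · show _ = (u : X2 × SUG).1 ^ 3 * (v : X2 × SUG).1 ^ 4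
        rw [(hz4 _ (mem_ker_piX huk).1).1, (hz4 _ (mem_ker_piX hvk).1).2, mul_one, eu']
      · show _ = (u : X2 × SUG).2 ^ 3 * (v : X2 × SUG).2 ^ 4
        rw [hc3 _ (mem_ker_piX huk).2, pow_succ, hc3 _ (mem_ker_piX hvk).2, one_mul, one_mul, ev']
    rw [this]
    exact mul_mem (pow_mem hu 3) (pow_mem hv 4)
  rw [eq_top_iff]
  intro a _
  obtain ⟨c, hc, e⟩ : pA a ∈ (commutator X).map pA := hA ▸ Subgroup.mem_top _
  have : a * c⁻¹ ∈ piX.ker := by
    rw [MonoidHom.mem_ker, piX, MonoidHom.comp_apply, map_mul, map_inv, e, mul_inv_cancel, map_one]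
  simpa using mul_mem (hleft _ this) hc

theorem isCyclic_ker_phi : IsCyclic phi.ker :=
  haveI : Fact (Nat.Prime 2) := ⟨Nat.prime_two⟩
  isCyclic_of_prime_card card_ker_phi

theorem isCyclic_center : IsCyclic (Subgroup.center SUG) :=
  haveI : Fact (Nat.Prime 3) := ⟨Nat.prime_three⟩
  isCyclic_of_prime_card card_center

/-- The three coordinates of the kernel. -/
noncomputable def kerHom : piX.ker →* Subgroup.center SUG × (phi.ker × phi.ker) :=
  MonoidHom.mk' (fun a => (⟨_, (mem_ker_piX a.2).2⟩,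
    (⟨_, (mem_ker_pi2 (mem_ker_piX a.2).1).1⟩, ⟨_, (mem_ker_pi2 (mem_ker_piX a.2).1).2⟩)))
    fun _ _ => rfl

theorem kerHom_injective : Function.Injective kerHom := by
  rintro ⟨⟨⟨⟨⟨x, y⟩, h1⟩, c⟩, h2⟩, h3⟩ ⟨⟨⟨⟨⟨x', y'⟩, h1'⟩, c'⟩, h2'⟩, h3'⟩ e
  obtain rfl : c = c' := congrArg Subtype.val (congrArg Prod.fst e)
  obtain rfl : x = x' := congrArg Subtype.val (congrArg Prod.fst (congrArg Prod.snd e))
  obtain rfl : y = y' := congrArg Subtype.val (congrArg Prod.snd (congrArg Prod.snd e))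
  rfl

theorem kerHom_surjective : Function.Surjective kerHom := by
  rintro ⟨⟨c, hc⟩, ⟨x, hx⟩, ⟨y, hy⟩⟩
  have m2 : ((x, y) : H × H) ∈ X2 := mem_X2.2 (by
    rw [MonoidHom.mem_ker.1 hx, MonoidHom.mem_ker.1 hy, map_one])
  have hcm : c ∈ mkS.ker := by rw [mkS_ker]; exact hc
  have mX : ((⟨_, m2⟩, c) : X2 × SUG) ∈ X := mem_X.2 (by
    show phi x = mkS c
    rw [MonoidHom.mem_ker.1 hx, MonoidHom.mem_ker.1 hcm])
  exact ⟨⟨⟨_, mX⟩, MonoidHom.mem_ker.2 (show phi x = 1 from hx)⟩, rfl⟩

/-- A product of multiplicative groups as one multiplicative group. -/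
def mulProd (A B : Type) [AddZeroClass A] [AddZeroClass B] :
    Multiplicative A × Multiplicative B ≃* Multiplicative (A × B) where
  toFun p := Multiplicative.ofAdd (p.1.toAdd, p.2.toAdd)
  invFun t := (Multiplicative.ofAdd t.toAdd.1, Multiplicative.ofAdd t.toAdd.2)
  left_inv _ := rfl
  right_inv _ := rfl
  map_mul' _ _ := rfl

/-- The kernel. -/
noncomputable def kerEquiv :
    piX.ker ≃* Multiplicative (ZMod 3 × ZMod 2 × ZMod 2) :=
  haveI := isCyclic_ker_phi
  haveI := isCyclic_center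
  ((MulEquiv.ofBijective kerHom ⟨kerHom_injective, kerHom_surjective⟩).trans
    (MulEquiv.prodCongr
      (mulEquivOfCyclicCardEq (G' := Multiplicative (ZMod 3))
        (by rw [card_center, Nat.card_congr Multiplicative.toAdd, Nat.card_zmod]))
      ((MulEquiv.prodCongr
        (mulEquivOfCyclicCardEq (G' := Multiplicative (ZMod 2))
          (by rw [card_ker_phi, Nat.card_congr Multiplicative.toAdd, Nat.card_zmod]))
        (mulEquivOfCyclicCardEq (G' := Multiplicative (ZMod 2))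
          (by rw [card_ker_phi, Nat.card_congr Multiplicative.toAdd, Nat.card_zmod]))).trans
        (mulProd (ZMod 2) (ZMod 2))))).trans
    (mulProd (ZMod 3) (ZMod 2 × ZMod 2))

instance finite_X : Finite X := by
  haveI : Finite X2 := inferInstance
  infer_instance

/-- The multiplier over four elements. -/
theorem multiplier_F4 :
    Cfsg.HasSchurMultiplier S (Multiplicative (ZMod 3 × ZMod 2 × ZMod 2)) :=
  hasSchurMultiplier_of_cover piX
    ⟨pi2_surjective.comp pA_surjective, ker_piX_le, by rw [perfect_X]; exact le_top⟩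
    perfect_X noMult_X kerEquiv

end CfsgLib.U6Mult
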