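import Cfsg.Agent.U6Mult30.Data

/-! The certificate passes its check. -/

set_option autoImplicit false
set_option maxRecDepth 100000

namespace CfsgLib.U6Mult

theorem cert_ok : CfsgLib.Schur.TwoCert.ok cert = true := by decide +kernel

end CfsgLib.U6Mult
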