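import Cfsg.Agent.U6Mult30.Twist
import Cfsg.Agent.Schur.TwoCert

/-!
Elements of the fourfold cover from the generated data, tested on five base points in each coordinate.
-/

set_option autoImplicit false
set_option maxRecDepth 100000

namespace CfsgLib.U6Mult

open CfsgLib.CosetEnum CfsgLib.CosetEnum.Fi22 CfsgLib.CosetEnum.Fi22.U6
open CfsgLib.Schur
open scoped commutatorElement

attribute [local irreducible] rules eqs pathData

theorem data_ok : pathData.all (fun ds => ds.all pairOK) = true := by decide +kernel

theorem data_at (k : ℕ) : (pathData.getD k []).all pairOK = true := by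
  rcases Nat.lt_or_ge k pathData.length with h | h
  · rw [List.getD_eq_getElem _ _ h]
    exact List.all_eq_true.1 data_ok _ (List.getElem_mem _)
  · rw [List.getD_eq_default _ _ h]; rfl

theorem z0_left_mem : (z0, (1 : H)) ∈ X2 := mem_X2.2 (by rw [phi_z0, map_one, map_one])

theorem z0_right_mem : ((1 : H), z0) ∈ X2 := mem_X2.2 (by rw [phi_z0, map_one, map_one])

/-- The chosen elements. -/
noncomputable def el : ℕ → X2
  | 0 => ⟨_, z0_left_mem⟩
  | 1 => ⟨_, z0_right_mem⟩
  | k + 2 => ⟨_, hProd_mem_X2 _ (data_at (k + 2))⟩

/-- Their words, in the two coordinates. -/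
def wEl (b : Bool) : ℕ → List ℕ
  | 0 => if b then [] else [0]
  | 1 => if b then [0] else []
  | k + 2 => (((pathData.getD (k + 2) []).map fun d => pal (if b then d.2 else d.1)).flatten.map
      gsW).flatten

/-- A coordinate. -/
noncomputable def coord (b : Bool) : X2 →* Equiv.Perm (Fin Tab.perm.n) :=
  (cl Tab.wordsH).subtype.comp
    ((if b then MonoidHom.snd H H else MonoidHom.fst H H).comp X2.subtype)

theorem coord_ext {a a' : X2} (h : ∀ b, coord b a = coord b a') : a = a' :=
  Subtype.ext (Prod.ext (Subtype.ext (h false)) (Subtype.ext (h true)))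

theorem gword_pals {ks : List ℕ} (hk : ∀ k ∈ ks, k < 8) :
    (((ks.map sH).prod : H) : Equiv.Perm (Fin Tab.perm.n)) =
      gword perm_ok.sigma (ks.map gsW).flatten := by
  induction ks with
  | nil => rfl
  | cons k ks ih =>
    rw [List.map_cons, List.prod_cons, Subgroup.coe_mul, sH_val (hk k List.mem_cons_self),
      ih fun j hj => hk j (List.mem_cons_of_mem _ hj), List.map_cons, List.flatten_cons]
    simp [gword, List.map_append, List.prod_append]

theorem pal_lt : ∀ p : List (ℕ × ℕ), pathOK p = true → ∀ k ∈ pal p, k < 8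
  | [], h => by simp [pathOK] at h
  | [e], h => by
    simp only [pathOK, Bool.and_eq_true, decide_eq_true_eq] at h
    simpa [pal] using h.1
  | e :: e' :: r, h => by
    simp only [pathOK, Bool.and_eq_true, decide_eq_true_eq] at h
    intro k hk
    rw [show pal (e :: e' :: r) = e.1 :: pal (e' :: r) ++ [e.1] from rfl] at hk
    simp only [List.mem_append, List.mem_cons, List.not_mem_nil, or_false] at hk
    rcases hk with (rfl | hk) | rfl
    exacts [h.1.1, pal_lt _ h.2 k hk, h.1.1]

theorem hProd_eq (ps : List (List (ℕ × ℕ))) : hProd ps = ((ps.map pal).flatten.map sH).prod := by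
  induction ps with
  | nil => rfl
  | cons p ps ih =>
    rw [hProd, List.map_cons, List.prod_cons, List.map_cons, List.flatten_cons, List.map_append,
      List.prod_append, ← ih, hProd]

theorem el_coord (b : Bool) : ∀ k, coord b (el k) = gword perm_ok.sigma (wEl b k)
  | 0 => by cases b <;> simp [coord, el, wEl, z0, gword]
  | 1 => by cases b <;> simp [coord, el, wEl, z0, gword]
  | k + 2 => by
    have h := List.all_eq_true.1 (data_at (k + 2))
    cases b with
    | false =>
      show ((hProd ((pathData.getD (k + 2) []).map Prod.fst) : H) :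
        Equiv.Perm (Fin Tab.perm.n)) = _
      rw [hProd_eq, List.map_map, gword_pals fun x hx => ?_]
      · rfl
      · obtain ⟨l, hl, hx⟩ := List.mem_flatten.1 hx
        obtain ⟨d, hd, rfl⟩ := List.mem_map.1 hl
        have := h d hd
        simp only [pairOK, Bool.and_eq_true] at this
        exact pal_lt _ this.1.1 x hx
    | true =>
      show ((hProd ((pathData.getD (k + 2) []).map Prod.snd) : H) :
        Equiv.Perm (Fin Tab.perm.n)) = _
      rw [hProd_eq, List.map_map, gword_pals fun x hx => ?_]
      · rfl
      · obtain ⟨l, hl, hx⟩ := List.mem_flatten.1 hx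
        obtain ⟨d, hd, rfl⟩ := List.mem_map.1 hl
        have := h d hd
        simp only [pairOK, Bool.and_eq_true] at this
        exact pal_lt _ this.1.2 x hx

/-- The word in the permutations of a word in the chosen elements. -/
def wOf (b : Bool) (w : List ℕ) : List ℕ := (w.map (wEl b)).flatten

theorem gword_coord (b : Bool) (w : List ℕ) :
    coord b (gword el w) = gword perm_ok.sigma (wOf b w) := by
  induction w with
  | nil => simp [gword, wOf]
  | cons k w ih =>
    rw [gword_cons, map_mul, ih, el_coord]
    simp [gword, wOf, List.map_append, List.prod_append]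

theorem wEl_check : (List.range 22).all (fun k =>
    (wEl false k ++ wEl true k).all fun x => x.blt 9) = true := by decide +kernel

theorem wOf_lt (b : Bool) {w : List ℕ} (hw : w.all (fun k => k.blt 22) = true) :
    ∀ x ∈ wOf b w, x < Tab.perm.L := by
  intro x hx
  obtain ⟨l, hl, hx⟩ := List.mem_flatten.1 hx
  obtain ⟨k, hk, rfl⟩ := List.mem_map.1 hl
  have hk22 := List.all_eq_true.1 hw k hk
  simp only [Nat.blt, Nat.ble_eq] at hk22
  have := List.all_eq_true.1 (List.all_eq_true.1 wEl_check k (List.mem_range.2 hk22)) x
    (List.mem_append.2 (by cases b; exacts [Or.inl hx, Or.inr hx]))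
  simp only [Nat.blt, Nat.ble_eq] at this
  exact this

/-! ### Five points determine a permutation -/

theorem basePts_trivial {g : Equiv.Perm (Fin Tab.perm.n)} (hg : g ∈ pi.range)
    (h : ∀ p ∈ [P4, P3, P2, P1, P0], g p = p) : g = 1 := by
  have hc : Nat.card (pointStab pi.range [P4, P3, P2, P1, P0]) = 1 := by
    have h1 := card_range_ge
    rw [card_range_eq] at h1
    have h2 : 0 < Nat.card (pointStab pi.range [P4, P3, P2, P1, P0]) := Nat.card_pos
    exact le_antisymm (Nat.le_of_mul_le_mul_left (h1.trans (Nat.mul_one _).ge) (by norm_num)) h2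
  have := Subgroup.card_eq_one.1 hc
  exact Subgroup.mem_bot.1 (this ▸ mem_pointStab.2 ⟨hg, h⟩)

theorem clH_le_range : cl Tab.wordsH ≤ pi.range := by
  rw [cl_H]; exact Subgroup.map_le_range pi Hs

/-- The five base points. -/
def base5 : List ℕ := [0, 1, 192, 521, 2359]

/-- The inverse image of a base point under a word. -/
noncomputable def imgW (w : List ℕ) (j : ℕ) : ℕ :=
  runT Tab.perm.T Tab.perm.L (wOf (decide (5 ≤ j)) w) (base5.getD (j % 5) 0)

/-- A base point. -/
noncomputable def bPt (j : ℕ) : Fin Tab.perm.n :=
  ⟨base5.getD (j % 5) 0, by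
    have : ∀ i < 5, base5.getD i 0 < 3510 := by decide
    exact this _ (Nat.mod_lt _ (by norm_num))⟩

/-- The inverse image of a base point under an element. -/
noncomputable def img (a : X2) (j : ℕ) : Fin Tab.perm.n := (coord (decide (5 ≤ j)) a)⁻¹ (bPt j)

theorem img_mul (a a' : X2) (j : ℕ) :
    img (a * a') j = (coord (decide (5 ≤ j)) a')⁻¹ (img a j) := by
  simp [img, map_mul, mul_inv_rev]

theorem img_gword {w : List ℕ} (hw : w.all (fun k => k.blt 22) = true) (j : ℕ) :
    (img (gword el w) j : ℕ) = imgW w j := by
  rw [img, gword_coord, imgW, perm_ok.gword_inv_apply _ (wOf_lt _ hw)]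
  rfl

theorem eq_of_img {a a' : X2} (h : ∀ j < 10, img a j = img a' j) : a = a' := by
  have key : ∀ j < 10, (coord (decide (5 ≤ j)) (a' * a⁻¹)) (bPt j) = bPt j := by
    intro j hj
    have e := h j hj
    simp only [img] at e
    rw [map_mul, map_inv, Equiv.Perm.mul_apply, e]
    simp
  refine coord_ext fun b => ?_
  have h1 : coord b (a' * a⁻¹) = 1 := by
    refine basePts_trivial (clH_le_range ?_) ?_
    · cases b
      exacts [((a' * a⁻¹ : X2) : H × H).1.2, ((a' * a⁻¹ : X2) : H × H).2.2]
    · intro p hp
      simp only [List.mem_cons, List.not_mem_nil, or_false] at hp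
      cases b <;> rcases hp with rfl | rfl | rfl | rfl | rfl
      · exact key 4 (by norm_num)
      · exact key 3 (by norm_num)
      · exact key 2 (by norm_num)
      · exact key 1 (by norm_num)
      · exact key 0 (by norm_num)
      · exact key 9 (by norm_num)
      · exact key 8 (by norm_num)
      · exact key 7 (by norm_num)
      · exact key 6 (by norm_num)
      · exact key 5 (by norm_num)
  rw [map_mul, map_inv, mul_inv_eq_one] at h1
  exact h1.symm

/-- The test of equality of two words. -/
noncomputable def sameW (u v : List ℕ) : Bool :=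
  u.all (fun k => k.blt 22) && v.all (fun k => k.blt 22) &&
    (List.range 10).all fun j => imgW u j == imgW v j

theorem eq_of_sameW {u v : List ℕ} (h : sameW u v = true) : gword el u = gword el v := by
  simp only [sameW, Bool.and_eq_true, List.all_eq_true (l := List.range 10), List.mem_range,
    beq_iff_eq] at h
  exact eq_of_img fun j hj => Fin.ext (by rw [img_gword h.1.1, img_gword h.1.2, h.2 j hj])

/-- The inverse image of any point in a coordinate. -/
noncomputable def imgAt (b : Bool) (p : Fin Tab.perm.n) (a : X2) : Fin Tab.perm.n := (coord b a)⁻¹ p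

theorem imgAt_mul (b : Bool) (p : Fin Tab.perm.n) (a a' : X2) :
    imgAt b p (a * a') = (coord b a')⁻¹ (imgAt b p a) := by
  simp [imgAt, map_mul, mul_inv_rev]

theorem imgAt_gword (b : Bool) (p : Fin Tab.perm.n) {w : List ℕ}
    (hw : w.all (fun k => k.blt 22) = true) :
    (imgAt b p (gword el w) : ℕ) = runT Tab.perm.T Tab.perm.L (wOf b w) p := by
  rw [imgAt, gword_coord, perm_ok.gword_inv_apply _ (wOf_lt _ hw)]

end CfsgLib.U6Mult
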