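import Cfsg.Agent.CosetEnum.Fi22.U6.Cover
import Cfsg.Agent.U6Mult30.Data

/-!
The double cover of PSU₆(2) in the presented Fi22, the images of transposition words, and the twist
by a diagonal automorphism: the pairs agreeing up to the twist form an extension with kernel a
four-group.
-/

set_option autoImplicit false

namespace CfsgLib.U6Mult

open CfsgLib.Unitary CfsgLib.CosetEnum CfsgLib.CosetEnum.Fi22 CfsgLib.CosetEnum.Fi22.U6
open CfsgLib.CosetEnum.Suz.G2 (F4)

/-- The double cover. -/
abbrev H : Type := ↥(cl Tab.wordsH)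

/-- The unitary group. -/
abbrev SUG : Type := ↥(Cfsg.SU 6 F4 2)

/-- The simple group. -/
abbrev S : Type := Cfsg.PSU 6 F4 2

instance finite_H : Finite H := Nat.finite_of_card_ne_zero (by rw [card_clH]; norm_num)

/-- The natural map to the simple group. -/
noncomputable def mkS : SUG →* S := QuotientGroup.mk' _

/-- The covering map. -/
noncomputable def phi : H →* S :=
  toU.comp ((MonoidHom.ofInjective toPerm_injective).trans
    (MulEquiv.subgroupCongr toPerm_range)).symm.toMonoidHom

theorem phi_surjective : Function.Surjective phi :=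
  toU_surjective.comp (MulEquiv.surjective _)

theorem phi_of_pair {a : H} {A : SUG} (h : ((a : Equiv.Perm (Fin Tab.perm.n)), A) ∈ Gamma) :
    phi a = mkS A := by
  have hmem : toPSU ((a : Equiv.Perm (Fin Tab.perm.n)), A) ∈ GammaP := Subgroup.mem_map_of_mem _ h
  have he : ((MonoidHom.ofInjective toPerm_injective).trans
      (MulEquiv.subgroupCongr toPerm_range)).symm a = ⟨_, hmem⟩ :=
    MulEquiv.symm_apply_eq _ |>.2 (Subtype.ext rfl)
  show toU _ = _
  rw [show ((MonoidHom.ofInjective toPerm_injective).trans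
      (MulEquiv.subgroupCongr toPerm_range)).symm.toMonoidHom a = ⟨_, hmem⟩ from he]
  rfl

/-- The central involution. -/
noncomputable def z0 : H := ⟨perm_ok.sigma 0, sigma0_mem⟩

theorem phi_z0 : phi z0 = 1 :=
  (phi_of_pair (Subgroup.subset_closure (Or.inl rfl))).trans (map_one _)

/-- The eight transpositions. -/
noncomputable def sH (k : ℕ) : H :=
  if h : k < 8 then ⟨gword perm_ok.sigma (gsW k), gs_mem k h⟩ else 1

theorem sH_val {k : ℕ} (h : k < 8) :
    ((sH k : H) : Equiv.Perm (Fin Tab.perm.n)) = gword perm_ok.sigma (gsW k) := by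
  rw [sH, dif_pos h]

theorem phi_sH {k : ℕ} (h : k < 8) : phi (sH k) = mkS (tv (rootV k)) :=
  phi_of_pair (Subgroup.subset_closure (Or.inr ⟨k, h, by rw [sH_val h]⟩))

theorem z0_ne : z0 ≠ 1 := by
  intro h
  have h1 : perm_ok.sigma 0 = 1 := congrArg Subtype.val h
  have h2 := perm_ok.sigma_inv_apply (show 0 < Tab.perm.L from by decide +kernel) (pt 1)
  rw [h1, inv_one, pt_val] at h2
  have h3 := sigma0_check
  rw [show Tab.perm.T (Tab.perm.L * 1 + 0) = 1 from h2.symm] at h3
  exact Bool.noConfusion h3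

theorem card_ker_phi : Nat.card phi.ker = 2 := by
  have h := phi.ker.card_mul_index
  rw [Subgroup.index_ker, MonoidHom.range_eq_top.2 phi_surjective, Subgroup.card_top, card_psu,
    card_clH] at h
  exact Nat.eq_of_mul_eq_mul_right (show 0 < 9196830720 by norm_num) (h.trans (by norm_num))

theorem ker_phi_le : phi.ker ≤ Subgroup.center H := by
  have hk : ∀ a ∈ phi.ker, a = 1 ∨ a = z0 := by
    intro a ha
    obtain ⟨x, hx, hu⟩ := (Nat.card_eq_two_iff' (1 : phi.ker)).1 card_ker_phi
    by_cases h1 : a = 1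
    · exact Or.inl h1
    · have e1 := hu ⟨a, ha⟩ (fun h => h1 (congrArg Subtype.val h))
      have e2 := hu ⟨z0, phi_z0⟩ (fun h => z0_ne (congrArg Subtype.val h))
      exact Or.inr (congrArg Subtype.val (e1.trans e2.symm))
  intro a ha
  rw [Subgroup.mem_center_iff]
  intro g
  rcases hk a ha with rfl | rfl
  · simp
  · rcases hk _ ((MonoidHom.normal_ker phi).conj_mem z0 ha g) with h | h
    · exact absurd (conj_eq_one_iff.1 h) z0_ne
    · exact mul_inv_eq_iff_eq_mul.1 h

/-! ### Transposition words -/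

/-- The palindrome of a path. -/
def pal : List (ℕ × ℕ) → List ℕ
  | [] => []
  | [e] => [e.1]
  | e :: r => e.1 :: pal r ++ [e.1]

/-- One step: the transvection of the vector of a transposition applied to a coded vector. -/
noncomputable def stepV (k n : ℕ) : Fin 6 → F4 :=
  fun i => vec n i + Cfsg.hermForm 6 F4 2 (vec n) (rootV k) * rootV k i

/-- The coded vectors follow the path. -/
noncomputable def pathOK : List (ℕ × ℕ) → Bool
  | [] => false
  | [e] => decide (e.1 < 8) && decide (∀ i, vec e.2 i = rootV e.1 i)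
  | e :: e' :: r => decide (e.1 < 8) && decide (∀ i, stepV e.1 e'.2 i = vec e.2 i) && pathOK (e' :: r)

/-- The end vector of a path. -/
def endV : List (ℕ × ℕ) → Fin 6 → F4
  | [] => 0
  | e :: _ => vec e.2

theorem tv_inv {v : Fin 6 → F4} (h : Cfsg.hermForm 6 F4 2 v v = 0) : (tv v)⁻¹ = tv v := by
  refine inv_eq_of_mul_eq_one_right (sv_ext fun x => ?_)
  rw [sv_mul, sv_one, tv_iso h, sv_transvSU, sv_transvSU, herm_add_left, herm_smul_left, h, mul_zero,
    add_zero, add_assoc, ← add_smul]
  have : ∀ a : F4, a + a = 0 := by decide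
  rw [this, zero_smul, add_zero]

theorem pathOK_spec : ∀ p : List (ℕ × ℕ), pathOK p = true →
    Cfsg.hermForm 6 F4 2 (endV p) (endV p) = 0 ∧
      phi ((pal p).map sH).prod = mkS (tv (endV p))
  | [], h => by simp [pathOK] at h
  | [e], h => by
    simp only [pathOK, Bool.and_eq_true, decide_eq_true_eq] at h
    have he : endV [e] = rootV e.1 := funext h.2
    rw [he]
    exact ⟨rootV_iso h.1, by simp [pal, phi_sH h.1]⟩
  | e :: e' :: r, h => by
    simp only [pathOK, Bool.and_eq_true, decide_eq_true_eq] at h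
    obtain ⟨⟨hk, hv⟩, hr⟩ := h
    obtain ⟨hiso, hprod⟩ := pathOK_spec (e' :: r) hr
    have he : endV (e :: e' :: r) = sv (tv (rootV e.1)) (endV (e' :: r)) := by
      funext i
      rw [tv_iso (rootV_iso hk), sv_transvSU, one_mul]
      exact (hv i).symm
    rw [he]
    refine ⟨herm_sv_self_eq_zero _ hiso, ?_⟩
    rw [show pal (e :: e' :: r) = e.1 :: pal (e' :: r) ++ [e.1] from rfl, List.map_append,
      List.prod_append, List.map_cons, List.prod_cons, List.map_singleton, List.prod_singleton,
      map_mul, map_mul, phi_sH hk, hprod, ← map_mul, ← map_mul, ← conj_tv _ hiso,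
      tv_inv (rootV_iso hk)]

/-! ### The twist -/

/-- The diagonal entries of the twist and of its inverse. -/
def dcoef (b : Bool) (i : Fin 6) : F4 :=
  if i = 0 then (if b then .om' else .om) else 1

theorem dcoef_mul (b : Bool) (i : Fin 6) : dcoef b i * dcoef (!b) i = 1 := by
  revert b i; decide

theorem dcoef_norm (b : Bool) (i : Fin 6) : dcoef b i ^ 2 = dcoef (!b) i := by
  revert b i; decide

/-- The diagonal action on vectors. -/
def dvec (b : Bool) (v : Fin 6 → F4) : Fin 6 → F4 := fun i => dcoef b i * v i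

theorem dvec_dvec (b : Bool) (v : Fin 6 → F4) : dvec b (dvec (!b) v) = v := by
  funext i
  simp only [dvec]
  rw [← mul_assoc, dcoef_mul, one_mul]

theorem dvec_tf (v : Fin 6 → F4) : dvec true (dvec false v) = v := dvec_dvec true v

theorem dvec_ft (v : Fin 6 → F4) : dvec false (dvec true v) = v := dvec_dvec false v

theorem herm_dvec (b : Bool) (x y : Fin 6 → F4) :
    Cfsg.hermForm 6 F4 2 (dvec b x) (dvec b y) = Cfsg.hermForm 6 F4 2 x y := by
  simp only [Cfsg.hermForm, dvec, mul_pow, dcoef_norm]
  refine Finset.sum_congr rfl fun i _ => ?_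
  linear_combination (x i * y i ^ 2) * dcoef_mul b i

/-- The diagonal matrix. -/
def dmat (b : Bool) : Matrix (Fin 6) (Fin 6) F4 := Matrix.diagonal (dcoef b)

theorem dmat_mul (b : Bool) : dmat b * dmat (!b) = 1 := by
  rw [dmat, dmat, Matrix.diagonal_mul_diagonal, ← Matrix.diagonal_one]
  exact congrArg Matrix.diagonal (funext fun i => dcoef_mul b i)

theorem dmat_mulVec (b : Bool) (v : Fin 6 → F4) : (dmat b).mulVec v = dvec b v :=
  funext fun i => Matrix.mulVec_diagonal _ _ i

/-- The conjugate of an element. -/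
def dconjFun (b : Bool) (A : SUG) : SUG :=
  ⟨⟨dmat b * ((A : Matrix.SpecialLinearGroup (Fin 6) F4) : Matrix (Fin 6) (Fin 6) F4) * dmat (!b), by
      rw [Matrix.det_mul, Matrix.det_mul, mul_right_comm, ← Matrix.det_mul, dmat_mul, Matrix.det_one,
        one_mul]
      exact A.1.2⟩,
    mem_SU.2 fun x y => by
      simp only [← Matrix.mulVec_mulVec, dmat_mulVec]
      rw [herm_dvec]
      exact (mem_SU.1 A.2 _ _).trans (herm_dvec _ _ _)⟩

theorem sv_dconjFun (b : Bool) (A : SUG) (x : Fin 6 → F4) :
    sv (dconjFun b A) x = dvec b (sv A (dvec (!b) x)) := by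
  show (dmat b * ((A : Matrix.SpecialLinearGroup (Fin 6) F4) : Matrix (Fin 6) (Fin 6) F4) *
    dmat (!b)).mulVec x = _
  rw [← Matrix.mulVec_mulVec, ← Matrix.mulVec_mulVec, dmat_mulVec, dmat_mulVec]
  rfl

/-- Conjugation by the diagonal matrix. -/
def dconj : SUG ≃* SUG where
  toFun := dconjFun false
  invFun := dconjFun true
  left_inv A := sv_ext fun x => by
    simp only [sv_dconjFun, Bool.not_true, Bool.not_false, dvec_tf]
  right_inv A := sv_ext fun x => by
    simp only [sv_dconjFun, Bool.not_true, Bool.not_false, dvec_ft]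
  map_mul' A B := sv_ext fun x => by
    rw [sv_mul, sv_dconjFun, sv_dconjFun, sv_dconjFun, sv_mul]
    congr 2
    exact (dvec_dvec (!false) _).symm

theorem map_dconj_center :
    (Subgroup.center SUG).map (dconj : SUG →* SUG) = Subgroup.center SUG := by
  ext a
  simp only [Subgroup.mem_map, Subgroup.mem_center_iff]
  constructor
  · rintro ⟨b, hb, rfl⟩ g
    obtain ⟨g, rfl⟩ := dconj.surjective g
    simp only [MonoidHom.coe_coe]
    rw [← map_mul, hb, map_mul]
  · intro h
    refine ⟨dconj.symm a, fun g => ?_, dconj.apply_symm_apply a⟩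
    apply dconj.injective
    rw [map_mul, map_mul, dconj.apply_symm_apply, h]

/-- The outer automorphism. -/
noncomputable def alpha : S ≃* S := QuotientGroup.congr _ _ dconj map_dconj_center

theorem alpha_mkS (A : SUG) : alpha (mkS A) = mkS (dconj A) := rfl

theorem dconj_tv {v : Fin 6 → F4} (h : Cfsg.hermForm 6 F4 2 v v = 0) :
    dconj (tv v) = tv (dvec false v) := by
  have h' : Cfsg.hermForm 6 F4 2 (dvec false v) (dvec false v) = 0 := by rw [herm_dvec, h]
  refine sv_ext fun x => ?_
  show sv (dconjFun false (tv v)) x = _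
  rw [sv_dconjFun, tv_iso h, tv_iso h', sv_transvSU, sv_transvSU]
  have e : Cfsg.hermForm 6 F4 2 (dvec (!false) x) v = Cfsg.hermForm 6 F4 2 x (dvec false v) := by
    rw [← herm_dvec false (dvec (!false) x) v, dvec_dvec]
  have e' := congrFun (dvec_dvec false x)
  rw [e]
  funext i
  have := e' i
  simp only [dvec, Pi.add_apply, Pi.smul_apply, smul_eq_mul] at this ⊢
  linear_combination this

/-! ### The fourfold cover -/

/-- Pairs with images corresponding under the twist. -/
noncomputable def X2 : Subgroup (H × H) :=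
  MonoidHom.eqLocus (phi.comp (MonoidHom.fst H H))
    ((alpha.toMonoidHom.comp phi).comp (MonoidHom.snd H H))

theorem mem_X2 {a : H × H} : a ∈ X2 ↔ phi a.1 = alpha (phi a.2) := Iff.rfl

/-- The map to the simple group. -/
noncomputable def pi2 : X2 →* S := (phi.comp (MonoidHom.fst H H)).comp X2.subtype

theorem pi2_surjective : Function.Surjective pi2 := by
  intro s
  obtain ⟨x, hx⟩ := phi_surjective s
  obtain ⟨y, hy⟩ := phi_surjective (alpha.symm s)
  exact ⟨⟨(x, y), mem_X2.2 (by rw [hx, hy, MulEquiv.apply_symm_apply])⟩, hx⟩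

theorem mem_ker_pi2 {a : X2} (h : a ∈ pi2.ker) :
    (a : H × H).1 ∈ phi.ker ∧ (a : H × H).2 ∈ phi.ker := by
  have h1 : phi (a : H × H).1 = 1 := h
  refine ⟨h1, alpha.injective ?_⟩
  rw [← mem_X2.1 a.2, h1, map_one]

theorem ker_pi2_le : pi2.ker ≤ Subgroup.center X2 := by
  intro a ha
  obtain ⟨h1, h2⟩ := mem_ker_pi2 ha
  exact Subgroup.mem_center_iff.2 fun g => Subtype.ext (Prod.ext
    (Subgroup.mem_center_iff.1 (ker_phi_le h1) _) (Subgroup.mem_center_iff.1 (ker_phi_le h2) _))

theorem card_ker_pi2 : Nat.card pi2.ker = 4 := by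
  have e : pi2.ker ≃ phi.ker × phi.ker :=
    { toFun := fun a => (⟨_, (mem_ker_pi2 a.2).1⟩, ⟨_, (mem_ker_pi2 a.2).2⟩)
      invFun := fun p => ⟨⟨((p.1 : H), (p.2 : H)), mem_X2.2 (by
        rw [MonoidHom.mem_ker.1 p.1.2, MonoidHom.mem_ker.1 p.2.2, map_one])⟩, p.1.2⟩
      left_inv := fun _ => rfl
      right_inv := fun _ => rfl }
  rw [Nat.card_congr e, Nat.card_prod, card_ker_phi]

theorem card_X2 : Nat.card X2 = 2 ^ 17 * 280665 := by
  rw [Subgroup.card_eq_card_quotient_mul_card_subgroup pi2.ker,
    Nat.card_congr (QuotientGroup.quotientKerEquivOfSurjective pi2 pi2_surjective).toEquiv,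
    card_psu, card_ker_pi2]
  norm_num

/-- The product of the transpositions of some paths. -/
noncomputable def hProd (ps : List (List (ℕ × ℕ))) : H :=
  (ps.map fun p => ((pal p).map sH).prod).prod

/-- The pairs of paths correspond under the twist. -/
noncomputable def pairOK (d : List (ℕ × ℕ) × List (ℕ × ℕ)) : Bool :=
  pathOK d.1 && pathOK d.2 && [F4.one, F4.om, F4.om'].any fun c =>
    decide (∀ i, endV d.1 i = c * dvec false (endV d.2) i)

theorem hProd_mem_X2 : ∀ ds : List (List (ℕ × ℕ) × List (ℕ × ℕ)), ds.all pairOK = true →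
    (hProd (ds.map Prod.fst), hProd (ds.map Prod.snd)) ∈ X2
  | [], _ => one_mem _
  | d :: ds, h => by
    rw [List.all_cons, Bool.and_eq_true] at h
    obtain ⟨hd, hds⟩ := h
    have ih := hProd_mem_X2 ds hds
    simp only [pairOK, Bool.and_eq_true] at hd
    obtain ⟨⟨h1, h2⟩, h3⟩ := hd
    obtain ⟨c, hc, he⟩ := List.any_eq_true.1 h3
    obtain ⟨i1, p1⟩ := pathOK_spec _ h1
    obtain ⟨i2, p2⟩ := pathOK_spec _ h2
    have hc0 : c ≠ 0 := by
      intro h0; rw [h0] at hc; exact absurd hc (by decide)
    have hv : endV d.1 = c • dvec false (endV d.2) := funext (of_decide_eq_true he)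
    have hx : (((pal d.1).map sH).prod, ((pal d.2).map sH).prod) ∈ X2 := by
      refine mem_X2.2 ?_
      rw [p1, p2, alpha_mkS, dconj_tv i2, hv, tv_smul (by rw [herm_dvec, i2]) hc0]
    have := mul_mem hx ih
    simpa [hProd] using this

end CfsgLib.U6Mult
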