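import Cfsg.Agent.U6Mult30.Elems
import Cfsg.Agent.SchurClassical.NoMult
import Cfsg.Agent.U6Mult30.CertOK
import Cfsg.Agent.U6Mult30.Rules.R0
import Cfsg.Agent.U6Mult30.Rules.R1
import Cfsg.Agent.U6Mult30.Rules.R2
import Cfsg.Agent.U6Mult30.Rules.R3
import Cfsg.Agent.U6Mult30.Rules.R4
import Cfsg.Agent.U6Mult30.Rules.R5
import Cfsg.Agent.U6Mult30.Rules.R6
import Cfsg.Agent.U6Mult30.Rules.R7
import Cfsg.Agent.U6Mult30.Rules.R8
import Cfsg.Agent.U6Mult30.Rules.R9
import Cfsg.Agent.U6Mult30.Rules.R10
import Cfsg.Agent.U6Mult30.Rules.R11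
import Cfsg.Agent.U6Mult30.Rules.R12
import Cfsg.Agent.U6Mult30.Rules.R13
import Cfsg.Agent.U6Mult30.Rules.R14
import Cfsg.Agent.U6Mult30.Rules.R15

/-!
The certificate for the Sylow 2-subgroup of the fourfold cover; perfectness.
-/

set_option autoImplicit false
set_option maxRecDepth 100000

namespace CfsgLib.U6Mult

open CfsgLib.CosetEnum CfsgLib.CosetEnum.Fi22 CfsgLib.CosetEnum.Fi22.U6
open CfsgLib.Schur
open scoped commutatorElement

attribute [local irreducible] rules eqs pathData

theorem cert_n : cert.n = 17 := rfl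

theorem rules_ok : ∀ r < cert.rules.length,
    sameW (cert.rules.getD r ([], [])).1 (cert.rules.getD r ([], [])).2 = true := by
  intro r hr
  have hlen : cert.rules.length = 229 := by decide +kernel
  rw [hlen] at hr
  have key : ∀ a b : ℕ, a ≤ r → r < a + b → (List.range b).all (fun j =>
      sameW (cert.rules.getD (a + j) ([], [])).1 (cert.rules.getD (a + j) ([], [])).2) = true →
      sameW (cert.rules.getD r ([], [])).1 (cert.rules.getD r ([], [])).2 = true := fun a b ha hb h => by
    have := List.all_eq_true.1 h (r - a) (List.mem_range.2 (by omega))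
    rwa [show a + (r - a) = r by omega] at this
  by_cases h0 : r < 15
  · exact key 0 15 (by omega) (by omega) rules_ok0
  by_cases h1 : r < 30
  · exact key 15 15 (by omega) (by omega) rules_ok1
  by_cases h2 : r < 45
  · exact key 30 15 (by omega) (by omega) rules_ok2
  by_cases h3 : r < 60
  · exact key 45 15 (by omega) (by omega) rules_ok3
  by_cases h4 : r < 75
  · exact key 60 15 (by omega) (by omega) rules_ok4
  by_cases h5 : r < 90
  · exact key 75 15 (by omega) (by omega) rules_ok5
  by_cases h6 : r < 105
  · exact key 90 15 (by omega) (by omega) rules_ok6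
  by_cases h7 : r < 120
  · exact key 105 15 (by omega) (by omega) rules_ok7
  by_cases h8 : r < 135
  · exact key 120 15 (by omega) (by omega) rules_ok8
  by_cases h9 : r < 150
  · exact key 135 15 (by omega) (by omega) rules_ok9
  by_cases h10 : r < 165
  · exact key 150 15 (by omega) (by omega) rules_ok10
  by_cases h11 : r < 180
  · exact key 165 15 (by omega) (by omega) rules_ok11
  by_cases h12 : r < 195
  · exact key 180 15 (by omega) (by omega) rules_ok12
  by_cases h13 : r < 210
  · exact key 195 15 (by omega) (by omega) rules_ok13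
  by_cases h14 : r < 225
  · exact key 210 15 (by omega) (by omega) rules_ok14
  exact key 225 4 (by omega) (by omega) rules_ok15

/-- The words of a level fix the earlier points and separate the present one. -/
noncomputable def levelsOK : List (Bool × ℕ) → List (Bool × ℕ × List (List ℕ)) → Bool
  | _, [] => true
  | done, (b, q, ws) :: L =>
    q.blt 3510 && ws.all (fun w => w.all (fun k => k.blt 17) &&
      done.all fun d => runT Tab.perm.T Tab.perm.L (wOf d.1 w) d.2 == d.2) &&
    decide (ws.map fun w => runT Tab.perm.T Tab.perm.L (wOf b w) q).Nodup &&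
    levelsOK ((b, q) :: done) L

theorem levels_ok : levelsOK [] orbitWords = true ∧
    (orbitWords.map fun l => l.2.2.length).prod = 2 ^ 17 := by
  decide +kernel

theorem card_P : Nat.card (Subgroup.closure (el '' {i | i < 17}) : Subgroup X2) = 2 ^ 17 := by
  set P := Subgroup.closure (el '' {i | i < 17})
  have hrel : ∀ r < cert.rules.length, TwoCert.evalW el (cert.rules.getD r ([], [])).1 =
      TwoCert.evalW el (cert.rules.getD r ([], [])).2 := fun r hr =>
    eq_of_sameW (rules_ok r hr)
  refine le_antisymm ?_ ?_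
  · have hok := cert_ok
    simp only [TwoCert.ok, Bool.and_eq_true, decide_eq_true_eq] at hok
    rw [show Nat.card P = (P : Set X2).ncard from Nat.card_coe_set_eq _]
    exact TwoCert.ncard_closure_le hok.1.2 el
      (fun r hr => hrel r (lt_of_lt_of_le hr hok.1.1.2)) 17 le_rfl
  have key : ∀ (L : List (Bool × ℕ × List (List ℕ))) (done : List (Bool × ℕ)),
      (∀ d ∈ done, d.2 < 3510) → levelsOK done L = true →
      (L.map fun l => l.2.2.length).prod * 1 ≤
        {g : X2 | g ∈ P ∧ ∀ d ∈ done, ∀ h : d.2 < Tab.perm.n, imgAt d.1 ⟨d.2, h⟩ g = ⟨d.2, h⟩}.ncard := by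
    intro L
    induction L with
    | nil =>
      intro done _ _
      simp only [List.map_nil, List.prod_nil, mul_one]
      exact Set.ncard_pos (Set.toFinite _) |>.2 ⟨1, one_mem _, fun d _ h => by simp [imgAt]⟩
    | cons l L ih =>
      intro done hdone hok
      obtain ⟨b, q, ws⟩ := l
      simp only [levelsOK, Bool.and_eq_true, List.all_eq_true (l := ws),
        List.all_eq_true (l := done), beq_iff_eq, decide_eq_true_eq] at hok
      obtain ⟨⟨⟨hq, hw⟩, hnd⟩, hrest⟩ := hok
      simp only [Nat.blt, Nat.ble_eq] at hq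
      have hlt : ∀ w ∈ ws, w.all (fun k => k.blt 22) = true := fun w hm =>
        List.all_eq_true.2 fun k hk => by
          have := List.all_eq_true.1 (hw w hm).1 k hk
          simp only [Nat.blt, Nat.ble_eq] at this ⊢
          omega
      have ih' := ih ((b, q) :: done)
        (fun d hd => (List.mem_cons.1 hd).elim (fun e => e ▸ hq) (hdone d)) hrest
      set A := {g : X2 | g ∈ P ∧ ∀ d ∈ done, ∀ h : d.2 < Tab.perm.n,
        imgAt d.1 ⟨d.2, h⟩ g = ⟨d.2, h⟩}
      set B := {g : X2 | g ∈ P ∧ ∀ d ∈ (b, q) :: done, ∀ h : d.2 < Tab.perm.n,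
        imgAt d.1 ⟨d.2, h⟩ g = ⟨d.2, h⟩}
      let f : Fin ws.length × ↥B → ↥A := fun p =>
        ⟨p.2.1 * gword el ws[p.1.val],
          mul_mem p.2.2.1 (gword_mem P _ fun k hk => by
            have := List.all_eq_true.1 (hw _ (List.getElem_mem _)).1 k hk
            simp only [Nat.blt, Nat.ble_eq] at this
            exact Subgroup.subset_closure ⟨k, this, rfl⟩),
          fun d hd h => by
            rw [imgAt_mul, p.2.2.2 d (List.mem_cons_of_mem _ hd) h]
            refine Fin.ext ?_
            have e := imgAt_gword d.1 ⟨d.2, h⟩ (hlt _ (List.getElem_mem (l := ws) p.1.2))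
            rw [(hw _ (List.getElem_mem _)).2 d hd] at e
            exact e⟩
      have hf : Function.Injective f := by
        rintro ⟨i, g⟩ ⟨i', g'⟩ e
        have e' : g.1 * gword el ws[i.val] = g'.1 * gword el ws[i'.val] := congrArg Subtype.val e
        have e2 := congrArg (fun x => ((imgAt b ⟨q, hq⟩ x : Fin Tab.perm.n) : ℕ)) e'
        simp only [imgAt_mul, g.2.2 (b, q) List.mem_cons_self hq,
          g'.2.2 (b, q) List.mem_cons_self hq] at e2
        have e3 : runT Tab.perm.T Tab.perm.L (wOf b ws[i.val]) q =
            runT Tab.perm.T Tab.perm.L (wOf b ws[i'.val]) q := by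
          rw [← imgAt_gword b ⟨q, hq⟩ (hlt _ (List.getElem_mem _)),
            ← imgAt_gword b ⟨q, hq⟩ (hlt _ (List.getElem_mem _))]
          exact e2
        have hii : i = i' := Fin.ext (List.Nodup.getElem_inj_iff hnd
          (hi := by simp) (hj := by simp) |>.1 (by simpa using e3))
        subst hii
        exact Prod.ext rfl (Subtype.ext (mul_right_cancel e'))
      have := Nat.card_le_card_of_injective f hf
      rw [Nat.card_prod, Nat.card_fin, Nat.card_coe_set_eq, Nat.card_coe_set_eq] at this
      rw [List.map_cons, List.prod_cons, mul_one]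
      rw [mul_one] at ih'
      exact (Nat.mul_le_mul_left _ ih').trans this
  have h := key orbitWords [] (by simp) levels_ok.1
  rw [mul_one, levels_ok.2] at h
  refine h.trans ?_
  rw [show Nat.card P = (P : Set X2).ncard from Nat.card_coe_set_eq _]
  exact Set.ncard_le_ncard (fun g hg => hg.1) (Set.toFinite _)

/-- The 2-part of the multiplier of the fourfold cover is trivial. -/
theorem not_two_dvd_X2 {Δ : Type} [Group Δ] [Finite Δ] (σ : Δ →* X2) (hσ : Cfsg.IsStemExtension σ) :
    ¬ 2 ∣ Nat.card σ.ker := by
  refine TwoCert.not_two_dvd_card_ker hσ cert_ok el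
    (fun r hr => eq_of_sameW (rules_ok r hr)) card_P ?_
  have h := (Subgroup.closure (el '' {i | i < cert.n})).card_mul_index
  rw [cert_n, card_P, card_X2] at h
  rw [cert_n, Nat.eq_of_mul_eq_mul_left (by positivity) h]
  norm_num

/-! ### Perfectness -/

theorem comm_ok : commW.all (fun t => sameW (t.2.1 ++ t.2.2) (t.1 ++ t.2.2 ++ t.2.1)) = true ∧
    commW.map Prod.fst = [[1], [1, 0]] := by decide +kernel

theorem kerGens_mem : el 0 ∈ commutator X2 ∧ el 1 ∈ commutator X2 := by
  have h : ∀ z ∈ commW.map Prod.fst, gword el z ∈ commutator X2 := by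
    intro z hz
    obtain ⟨⟨z', a, b⟩, ht, rfl⟩ := List.mem_map.1 hz
    have e := eq_of_sameW (List.all_eq_true.1 comm_ok.1 _ ht)
    simp only [gword, List.map_append, List.prod_append] at e
    change gword el a * gword el b = gword el z' * gword el b * gword el a at e
    have : gword el z' = ⁅gword el a, gword el b⁆ := by
      rw [commutatorElement_def, e]; group
    rw [commutator_def]
    show gword el z' ∈ _
    rw [this]
    exact Subgroup.commutator_mem_commutator (Subgroup.mem_top _) (Subgroup.mem_top _)
  rw [comm_ok.2] at h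
  have h1 : el 1 ∈ commutator X2 := by simpa [gword] using h [1] (by simp)
  refine ⟨?_, h1⟩
  have h10 : el 1 * el 0 ∈ commutator X2 := by simpa [gword] using h [1, 0] (by simp)
  simpa using mul_mem (inv_mem h1) h10

theorem perfect_S : commutator S = ⊤ := by
  have h := Unitary.commutator_SU_eq_top hF (n := 6) (by omega) (by omega)
  rw [commutator_def] at h ⊢
  have e := congrArg (Subgroup.map (mkS : SUG →* S)) h
  rwa [Subgroup.map_commutator, Subgroup.map_top_of_surjective (mkS : SUG →* S)
    (QuotientGroup.mk'_surjective _)] at e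

theorem perfect_X2 : commutator X2 = ⊤ := by
  have hker : pi2.ker ≤ commutator X2 := by
    intro a ha
    obtain ⟨h1, h2⟩ := mem_ker_pi2 ha
    obtain ⟨k0, k1⟩ := kerGens_mem
    have hk : ∀ x ∈ phi.ker, x = 1 ∨ x = z0 := by
      intro x hx
      obtain ⟨y, hy, hu⟩ := (Nat.card_eq_two_iff' (1 : phi.ker)).1 card_ker_phi
      by_cases h : x = 1
      · exact Or.inl h
      · have e1 := hu ⟨x, hx⟩ (fun h' => h (congrArg Subtype.val h'))
        have e2 := hu ⟨z0, phi_z0⟩ (fun h' => z0_ne (congrArg Subtype.val h'))
        exact Or.inr (congrArg Subtype.val (e1.trans e2.symm))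
    rcases hk _ h1 with e1 | e1 <;> rcases hk _ h2 with e2 | e2
    · rw [show a = 1 from Subtype.ext (Prod.ext e1 e2)]; exact one_mem _
    · rw [show a = el 1 from Subtype.ext (Prod.ext e1 e2)]; exact k1
    · rw [show a = el 0 from Subtype.ext (Prod.ext e1 e2)]; exact k0
    · rw [show a = el 0 * el 1 from Subtype.ext (Prod.ext
        (e1.trans (mul_one z0).symm) (e2.trans (one_mul z0).symm))]
      exact mul_mem k0 k1
  have hmap : (commutator X2).map pi2 = ⊤ := by
    have := perfect_S
    rw [commutator_def] at this ⊢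
    rw [Subgroup.map_commutator, Subgroup.map_top_of_surjective _ pi2_surjective, this]
  rw [eq_top_iff]
  intro a _
  obtain ⟨c, hc, e⟩ : pi2 a ∈ (commutator X2).map pi2 := hmap ▸ Subgroup.mem_top _
  have : a * c⁻¹ ∈ pi2.ker := by rw [MonoidHom.mem_ker, map_mul, map_inv, e, mul_inv_cancel]
  simpa using mul_mem (hker this) hc

end CfsgLib.U6Mult
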